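import Cfsg.Agent.Chars.GaloisHom.Basic
import Mathlib.Data.ZMod.Units
import Mathlib.GroupTheory.GroupAction.Quotient

/-!
# Field automorphisms fixing the `m`-th roots of unity, as exponents modulo the group order
-/

set_option autoImplicit false

namespace CfsgLib.PConjugate

open Cfsg CfsgLib.Chars

universe u

variable {G : Type u} [Group G] [Finite G]

/-- The exponents congruent to `1` modulo `m`. -/
noncomputable def expo (G : Type u) [Group G] {m : ℕ} (hm : m ∣ Nat.card G) :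
    Subgroup (ZMod (Nat.card G))ˣ :=
  (ZMod.unitsMap hm).ker

variable {m : ℕ} {hm : m ∣ Nat.card G}

omit [Finite G] in
theorem pow_val_mul [Finite G] (g : G) (k l : (ZMod (Nat.card G))ˣ) :
    g ^ ((k * l : (ZMod (Nat.card G))ˣ) : ZMod (Nat.card G)).val =
      (g ^ (k : ZMod (Nat.card G)).val) ^ (l : ZMod (Nat.card G)).val := by
  rw [← pow_mul, Units.val_mul, ZMod.val_mul, pow_mod_natCard]

theorem pow_val_one (g : G) : g ^ (((1 : (ZMod (Nat.card G))ˣ) : ZMod (Nat.card G))).val = g := by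
  rw [Units.val_one, ZMod.val_one_eq_one_mod, pow_mod_natCard, pow_one]

theorem isCharacter_pow {χ : G → ℂ} (hχ : IsIrrCharacter G χ) (k : (ZMod (Nat.card G))ˣ) :
    IsIrrCharacter G (fun g => χ (g ^ (k : ZMod (Nat.card G)).val)) := by
  obtain ⟨σ, hσ⟩ := CfsgLib.GaloisHom.exists_ringHom_char (Nat.card_pos (α := G))
    (ZMod.val_coe_unit_coprime k)
  have h := isIrrCharacter_ringHom hχ σ
  convert h using 1
  funext g
  exact (hσ (isCharacter_of_isIrrCharacter hχ) g (orderOf_dvd_natCard g)).symm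

/-- The twist of a character by an exponent. -/
noncomputable def twist (k : (ZMod (Nat.card G))ˣ) (χ : IrrCharacter G) : IrrCharacter G :=
  ⟨fun g => (χ : G → ℂ) (g ^ (k : ZMod (Nat.card G)).val), isCharacter_pow χ.2 k⟩

theorem twist_apply (k : (ZMod (Nat.card G))ˣ) (χ : IrrCharacter G) (g : G) :
    (twist k χ : G → ℂ) g = (χ : G → ℂ) (g ^ (k : ZMod (Nat.card G)).val) := rfl

/-- The action of the exponents. -/
@[reducible] noncomputable def expoAction (G : Type u) [Group G] [Finite G] {m : ℕ}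
    (hm : m ∣ Nat.card G) : MulAction (expo G hm) (IrrCharacter G) where
  smul k χ := twist k.1 χ
  one_smul χ := Subtype.ext (funext fun g => by
    show (χ : G → ℂ) (g ^ _) = _
    rw [Subgroup.coe_one, pow_val_one])
  mul_smul k l χ := Subtype.ext (funext fun g => by
    show (χ : G → ℂ) (g ^ _) = (χ : G → ℂ) ((g ^ _) ^ _)
    rw [Subgroup.coe_mul, mul_comm k.1 l.1, pow_val_mul, ← pow_mul, mul_comm, pow_mul])

theorem mem_expo_iff (k : (ZMod (Nat.card G))ˣ) :
    k ∈ expo G hm ↔ (k : ZMod (Nat.card G)).val ≡ 1 [MOD m] := by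
  haveI : NeZero (Nat.card G) := ⟨Nat.card_pos.ne'⟩
  rw [expo, MonoidHom.mem_ker, Units.ext_iff, ZMod.unitsMap_val, Units.val_one, ZMod.cast_eq_val,
    ← Nat.cast_one, ZMod.natCast_eq_natCast_iff]

/-- The conjugates by automorphisms fixing the `m`-th roots of unity are the twists. -/
theorem conjugate_iff (hm : m ∣ Nat.card G) (χ ψ : IrrCharacter G) :
    (∃ σ : ℂ ≃+* ℂ, σ (Complex.exp (2 * Real.pi * Complex.I / (m : ℕ))) =
      Complex.exp (2 * Real.pi * Complex.I / (m : ℕ)) ∧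
      (ψ : G → ℂ) = fun g => σ ((χ : G → ℂ) g)) ↔ ∃ k : expo G hm, twist k.1 χ = ψ := by
  set N := Nat.card G
  have hN : N ≠ 0 := Nat.card_pos.ne'
  have hm0 : m ≠ 0 := fun h => hN (by rw [h] at hm; exact Nat.eq_zero_of_zero_dvd hm)
  obtain ⟨c, hc⟩ := id hm
  set ζ := Complex.exp (2 * Real.pi * Complex.I / (N : ℕ)) with hζdef
  have hζ : IsPrimitiveRoot ζ N := Complex.isPrimitiveRoot_exp N hN
  have hζm : Complex.exp (2 * Real.pi * Complex.I / (m : ℕ)) = ζ ^ c := by
    have hNc : (N : ℂ) = (m : ℂ) * c := by rw [← Nat.cast_mul, ← hc]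
    have hm' : (m : ℂ) ≠ 0 := Nat.cast_ne_zero.2 hm0
    have hc' : (c : ℂ) ≠ 0 := Nat.cast_ne_zero.2 fun h => hN (by rw [hc, h, mul_zero])
    rw [hζdef, ← Complex.exp_nat_mul, hNc]
    congr 1
    field_simp
  haveI : NeZero N := ⟨hN⟩
  have hfin : IsOfFinOrder ζ := isOfFinOrder_iff_pow_eq_one.2 ⟨N, Nat.pos_of_ne_zero hN, hζ.pow_eq_one⟩
  constructor
  · rintro ⟨σ, hσ, hψ⟩
    obtain ⟨j, hjN, hj⟩ := hζ.eq_pow_of_pow_eq_one (ξ := σ ζ) (by rw [← map_pow, hζ.pow_eq_one, map_one])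
    have hjc : j.Coprime N := by
      rw [← hζ.pow_iff_coprime (Nat.pos_of_ne_zero hN), hj]
      exact hζ.map_of_injective σ.injective
    let k : (ZMod N)ˣ := ZMod.unitOfCoprime j hjc
    have hk : (k : ZMod N).val = j := by
      rw [ZMod.coe_unitOfCoprime, ZMod.val_natCast, Nat.mod_eq_of_lt hjN]
    have hmem : k ∈ expo G hm := by
      rw [mem_expo_iff, hk]
      rw [hζm, map_pow, ← hj, ← pow_mul] at hσ
      have h := hfin.pow_eq_pow_iff_modEq.1 hσ
      rw [← hζ.eq_orderOf] at h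
      have h' : c * j ≡ c * 1 [MOD c * m] := by
        rwa [mul_one, mul_comm c j, mul_comm c m, ← hc]
      exact Nat.ModEq.mul_left_cancel' (fun h0 => hN (by rw [hc, h0, mul_zero])) h'
    refine ⟨⟨k, hmem⟩, Subtype.ext (funext fun g => ?_)⟩
    rw [twist_apply, hψ, hk]
    obtain ⟨s, h1, -, h3⟩ := exists_roots (isCharacter_coe χ) g
    show (χ : G → ℂ) (g ^ j) = σ ((χ : G → ℂ) g)
    have e := h3 1
    simp only [pow_one, Multiset.map_id'] at e
    rw [e, h3 j, map_multiset_sum]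
    refine congrArg Multiset.sum (Multiset.map_congr rfl fun z hz => ?_)
    obtain ⟨i, -, rfl⟩ := hζ.eq_pow_of_pow_eq_one (ξ := z) (by
      obtain ⟨d, hd⟩ := orderOf_dvd_natCard g
      show z ^ Nat.card G = 1
      rw [hd, pow_mul, h1 z hz, one_pow])
    rw [map_pow, ← hj, ← pow_mul, ← pow_mul, mul_comm]
  · rintro ⟨⟨k, hk⟩, rfl⟩
    obtain ⟨σ, hσ⟩ := CfsgLib.GaloisHom.exists_ringEquiv_pow (Nat.pos_of_ne_zero hN)
      (ZMod.val_coe_unit_coprime k)
    refine ⟨σ, ?_, funext fun g => ?_⟩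
    · rw [mem_expo_iff] at hk
      rw [hζm, hσ _ (by rw [← pow_mul, mul_comm, pow_mul, hζ.pow_eq_one, one_pow]), ← pow_mul]
      rw [hfin.pow_eq_pow_iff_modEq, ← hζ.eq_orderOf]
      have h := Nat.ModEq.mul_left' c hk
      rwa [mul_one, mul_comm c m, ← hc] at h
    · rw [twist_apply]
      obtain ⟨s, h1, -, h3⟩ := exists_roots (isCharacter_coe χ) g
      have e := h3 1
      simp only [pow_one, Multiset.map_id'] at e
      rw [e, h3 _, map_multiset_sum]
      refine (congrArg Multiset.sum (Multiset.map_congr rfl fun z hz => ?_)).symm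
      exact hσ z (by
        obtain ⟨d, hd⟩ := orderOf_dvd_natCard g
        show z ^ Nat.card G = 1
        rw [hd, pow_mul, h1 z hz, one_pow])

end CfsgLib.PConjugate
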