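import Cfsg.Agent.Chars.PConjugate.Galois
import Cfsg.Agent.Chars.Brauer.Defect

/-!
# Families of `p`-conjugate characters: the size times the degree
-/

set_option autoImplicit false

namespace CfsgLib.PConjugate

open Cfsg CfsgLib.Chars
open scoped ComplexConjugate

universe u

theorem geom_mul_integral {x : ℂ} {n : ℕ} (hn : 0 < n) (hx : x ^ n = 1) :
    ∃ w : ℂ, IsIntegral ℤ w ∧ ∑ i ∈ Finset.range n, x ^ i = (n : ℂ) * w := by
  by_cases h : x = 1
  · exact ⟨1, isIntegral_one, by simp [h]⟩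
  · refine ⟨0, isIntegral_zero, ?_⟩
    rw [geom_sum_eq h, hx, sub_self, zero_div, mul_zero]

variable {G : Type u} [Group G] [Fintype G] {p a m : ℕ}

theorem sum_div_integral (χ : IrrCharacter G) (F : G → ℂ) (hF : IsClassFunction G F)
    (h : ∀ g, IsIntegral ℤ (((Subgroup.centralizer ({g} : Set G)).index : ℂ) * F g * (χ : G → ℂ) g /
      (χ : G → ℂ) 1)) :
    IsIntegral ℤ ((∑ g : G, F g * (χ : G → ℂ) g) / (χ : G → ℂ) 1) := by
  classical
  rw [← Finset.sum_fiberwise Finset.univ ConjClasses.mk, Finset.sum_div]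
  refine IsIntegral.sum _ fun C _ => ?_
  have hC : ∀ g ∈ Finset.univ.filter (fun g : G => ConjClasses.mk g = C),
      F g * (χ : G → ℂ) g = F C.out * (χ : G → ℂ) C.out := by
    intro g hg
    have hgC : IsConj g C.out := by
      rw [← ConjClasses.mk_eq_mk_iff_isConj, (Finset.mem_filter.mp hg).2]
      exact (Quotient.out_eq C).symm
    rw [eq_of_isConj hF hgC, eq_of_isConj (isClassFunction_coe χ) hgC]
  rw [Finset.sum_congr rfl hC, Finset.sum_const, nsmul_eq_mul]
  have hcard : (Finset.univ.filter fun g : G => ConjClasses.mk g = C).card =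
      (Subgroup.centralizer ({C.out} : Set G)).index := by
    rw [← card_carrier_eq_index, show ConjClasses.mk C.out = C from Quotient.out_eq C,
      Nat.card_eq_fintype_card, ← Set.toFinset_card]
    congr 1
    ext g
    simp [ConjClasses.mem_carrier_iff_mk_eq]
  rw [hcard, ← mul_assoc]
  exact h C.out

/-- The hypotheses on the order. -/
structure Parts (G : Type u) [Group G] (p a m : ℕ) : Prop where
  prime : p.Prime
  pos : 0 < a
  card : Nat.card G = p ^ a * m
  ndvd : ¬ p ∣ m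

theorem Parts.dvd (P : Parts G p a m) : m ∣ Nat.card G := ⟨p ^ a, by rw [P.card, mul_comm]⟩

theorem Parts.dvd' (P : Parts G p a m) : p * m ∣ Nat.card G := by
  rw [P.card]
  exact Nat.mul_dvd_mul_right (dvd_pow_self p P.pos.ne') m

theorem card_expo {M : ℕ} (hM : M ∣ Nat.card G) :
    Nat.card (expo G hM) * M.totient = (Nat.card G).totient := by
  haveI : NeZero (Nat.card G) := ⟨Nat.card_pos.ne'⟩
  haveI : NeZero M := ⟨fun h => Nat.card_pos.ne' (Nat.eq_zero_of_zero_dvd (h ▸ hM))⟩
  have h := (expo G hM).card_mul_index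
  have hi : (expo G hM).index = M.totient := by
    rw [expo, Subgroup.index_ker, MonoidHom.range_eq_top.2 (ZMod.unitsMap_surjective hM),
      Subgroup.card_top, Nat.card_eq_fintype_card, ZMod.card_units_eq_totient]
  rw [hi] at h
  rw [h, Nat.card_eq_fintype_card (α := (ZMod (Nat.card G))ˣ), ZMod.card_units_eq_totient]

theorem Parts.card_expo_m (P : Parts G p a m) :
    Nat.card (expo G P.dvd) = p ^ (a - 1) * (p - 1) := by
  have h := card_expo P.dvd
  have hm0 : m ≠ 0 := fun h0 => P.ndvd (h0 ▸ dvd_zero p)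
  rw [congrArg Nat.totient P.card, Nat.totient_mul (((P.prime.coprime_iff_not_dvd).2 P.ndvd).pow_left a),
    Nat.totient_prime_pow P.prime P.pos] at h
  exact Nat.eq_of_mul_eq_mul_right (Nat.totient_pos.2 (Nat.pos_of_ne_zero hm0)) h

theorem Parts.card_expo_pm (P : Parts G p a m) :
    Nat.card (expo G P.dvd') = p ^ (a - 1) := by
  have h := card_expo P.dvd'
  have hm0 : m ≠ 0 := fun h0 => P.ndvd (h0 ▸ dvd_zero p)
  rw [congrArg Nat.totient P.card, Nat.totient_mul (((P.prime.coprime_iff_not_dvd).2 P.ndvd).pow_left a),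
    Nat.totient_mul ((P.prime.coprime_iff_not_dvd).2 P.ndvd), Nat.totient_prime_pow P.prime P.pos,
    Nat.totient_prime P.prime] at h
  have h1 : 0 < p - 1 := Nat.sub_pos_of_lt P.prime.one_lt
  exact Nat.eq_of_mul_eq_mul_right
    (Nat.mul_pos h1 (Nat.totient_pos.2 (Nat.pos_of_ne_zero hm0))) (by rw [h]; ring)

/-- The Ramanujan sum. -/
theorem Parts.sum_root (P : Parts G p a m) [Fintype (expo G P.dvd)] {z : ℂ}
    (hz : z ^ Nat.card G = 1) :
    ∃ w : ℂ, IsIntegral ℤ w ∧ ∑ k : expo G P.dvd, z ^ (k.1 : ZMod (Nat.card G)).val =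
      ((p ^ (a - 1) : ℕ) : ℂ) * w := by
  classical
  haveI : NeZero (Nat.card G) := ⟨Nat.card_pos.ne'⟩
  haveI : Fact p.Prime := ⟨P.prime⟩
  have hm0 : 0 < m := Nat.pos_of_ne_zero fun h0 => P.ndvd (h0 ▸ dvd_zero p)
  have hp0 := P.prime.pos
  have hpa : p ^ a = p * p ^ (a - 1) := by rw [← pow_succ', Nat.sub_add_cancel P.pos]
  have hN1 : 1 < (Nat.card G) := by
    rw [P.card]
    calc 1 < p := P.prime.one_lt
      _ ≤ p ^ a * m := (Nat.le_self_pow P.pos.ne' p).trans (Nat.le_mul_of_pos_right _ hm0)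
  have hval : ∀ k : expo G P.dvd, (k.1 : ZMod (Nat.card G)).val = 1 + m * (((k.1 : ZMod (Nat.card G)).val - 1) / m) ∧
      ((k.1 : ZMod (Nat.card G)).val - 1) / m < p ^ a ∧ ¬ p ∣ (k.1 : ZMod (Nat.card G)).val := by
    intro k
    have h1 := (mem_expo_iff k.1).1 k.2
    have hlt : (k.1 : ZMod (Nat.card G)).val < p ^ a * m := P.card ▸ ZMod.val_lt (k.1 : ZMod (Nat.card G))
    have hc := ZMod.val_coe_unit_coprime k.1
    have hpos : 1 ≤ (k.1 : ZMod (Nat.card G)).val := by
      by_contra h0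
      rw [show (k.1 : ZMod (Nat.card G)).val = 0 by omega, Nat.coprime_zero_left] at hc
      omega
    have hd : m ∣ (k.1 : ZMod (Nat.card G)).val - 1 := (Nat.modEq_iff_dvd' hpos).1 h1.symm
    refine ⟨by rw [Nat.mul_div_cancel' hd]; omega, ?_, fun hp => ?_⟩
    · rw [Nat.div_lt_iff_lt_mul hm0]; omega
    · exact P.prime.one_lt.ne' (Nat.eq_one_of_dvd_coprimes hc hp
        (Dvd.dvd.trans (dvd_pow_self p P.pos.ne') ⟨m, P.card⟩))
  set Sset := (Finset.range (p ^ a)).filter fun j => ¬ p ∣ 1 + m * j with hSset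
  have hbij : ∑ k : expo G P.dvd, z ^ (k.1 : ZMod (Nat.card G)).val = ∑ j ∈ Sset, z ^ (1 + m * j) := by
    refine Finset.sum_bij (fun k _ => ((k.1 : ZMod (Nat.card G)).val - 1) / m) (fun k _ => ?_)
      (fun k _ l _ e => ?_) (fun j hj => ?_) (fun k _ => by rw [← (hval k).1])
    · exact Finset.mem_filter.2 ⟨Finset.mem_range.2 (hval k).2.1, by
        rw [← (hval k).1]; exact (hval k).2.2⟩
    · refine Subtype.ext (Units.ext (ZMod.val_injective (Nat.card G) ?_))
      rw [(hval k).1, (hval l).1, e]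
    · obtain ⟨hj1, hj2⟩ := Finset.mem_filter.1 hj
      rw [Finset.mem_range] at hj1
      have hco : (1 + m * j).Coprime (Nat.card G) := by
        rw [P.card]
        refine Nat.Coprime.mul_right ((((P.prime.coprime_iff_not_dvd).2 hj2).symm).pow_right a) ?_
        rw [Nat.coprime_add_mul_left_left]; exact Nat.coprime_one_left m
      have hlt : 1 + m * j < (Nat.card G) := by
        have h2 : m * (j + 1) ≤ m * p ^ a := Nat.mul_le_mul_left m hj1
        have h3 : 1 + m * j ≠ (Nat.card G) := fun e => hj2 (by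
          rw [e]; exact Dvd.dvd.trans (dvd_pow_self p P.pos.ne') ⟨m, P.card⟩)
        rw [mul_comm m (p ^ a), ← P.card] at h2
        rw [Nat.mul_succ] at h2
        omega
      have hv : ((ZMod.unitOfCoprime _ hco : (ZMod (Nat.card G))ˣ) : ZMod (Nat.card G)).val = 1 + m * j := by
        rw [ZMod.coe_unitOfCoprime, ZMod.val_natCast, Nat.mod_eq_of_lt hlt]
      refine ⟨⟨ZMod.unitOfCoprime _ hco, (mem_expo_iff _).2 ?_⟩, Finset.mem_univ _, ?_⟩
      · rw [hv]; exact Nat.modEq_iff_dvd' (by omega) |>.2 (by simp) |>.symm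
      · simp only [hv]
        rw [Nat.add_sub_cancel_left, Nat.mul_div_cancel_left _ hm0]
  have hx : (z ^ m) ^ p ^ a = 1 := by rw [← pow_mul, mul_comm, ← P.card, hz]
  obtain ⟨w1, hw1, e1⟩ := geom_mul_integral (pow_pos hp0 a) hx
  obtain ⟨w2, hw2, e2⟩ := geom_mul_integral (x := (z ^ m) ^ p) (pow_pos hp0 (a - 1))
    (by rw [← pow_mul, ← hpa, hx])
  obtain ⟨j0, hj0, hj0'⟩ : ∃ j0 < p, ∀ j, p ∣ 1 + m * j ↔ j % p = j0 := by
    have hmz : (m : ZMod p) ≠ 0 := by rw [Ne, ZMod.natCast_eq_zero_iff]; exact P.ndvd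
    refine ⟨(-(m : ZMod p)⁻¹).val, ZMod.val_lt _, fun j => ?_⟩
    rw [← ZMod.natCast_eq_zero_iff, ← ZMod.val_natCast, (ZMod.val_injective p).eq_iff]
    push_cast
    constructor
    · intro h
      field_simp
      linear_combination h
    · intro h
      rw [h]
      field_simp
      ring
  have hsplit : ∑ j ∈ (Finset.range (p ^ a)).filter (fun j => p ∣ 1 + m * j), (z ^ m) ^ j =
      (z ^ m) ^ j0 * ∑ i ∈ Finset.range (p ^ (a - 1)), ((z ^ m) ^ p) ^ i := by
    rw [Finset.mul_sum]
    refine Finset.sum_bij' (fun j _ => j / p) (fun i _ => j0 + p * i) (fun j hj => ?_)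
      (fun i hi => ?_) (fun j hj => ?_) (fun i _ => ?_) (fun j hj => ?_)
    · obtain ⟨hj1, -⟩ := Finset.mem_filter.1 hj
      rw [Finset.mem_range] at hj1 ⊢
      rw [Nat.div_lt_iff_lt_mul hp0, mul_comm, ← hpa]; exact hj1
    · rw [Finset.mem_range] at hi
      refine Finset.mem_filter.2 ⟨Finset.mem_range.2 ?_, (hj0' _).2 ?_⟩
      · rw [hpa]
        calc j0 + p * i < p * (i + 1) := by rw [Nat.mul_succ]; omega
          _ ≤ p * p ^ (a - 1) := Nat.mul_le_mul_left p hi
      · rw [Nat.add_mul_mod_self_left, Nat.mod_eq_of_lt hj0]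
    · rw [← (hj0' j).1 (Finset.mem_filter.1 hj).2, Nat.mod_add_div]
    · rw [Nat.add_mul_div_left _ _ hp0, Nat.div_eq_of_lt hj0, zero_add]
    · rw [← pow_mul (z ^ m) p, ← pow_add, ← (hj0' j).1 (Finset.mem_filter.1 hj).2, Nat.mod_add_div]
  have hz0 : IsIntegral ℤ z := IsIntegral.of_pow (Nat.card_pos (α := G)) (hz ▸ isIntegral_one)
  refine ⟨z * ((p : ℂ) * w1 - (z ^ m) ^ j0 * w2),
    hz0.mul (((isIntegral_natCast p).mul hw1).sub (((hz0.pow m).pow j0).mul hw2)), ?_⟩
  rw [hbij, Finset.sum_congr rfl (g := fun j => z * (z ^ m) ^ j) (fun j _ => by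
    rw [pow_add, pow_one, pow_mul]), ← Finset.mul_sum]
  have h := Finset.sum_filter_add_sum_filter_not (Finset.range (p ^ a)) (fun j => p ∣ 1 + m * j)
    (fun j => (z ^ m) ^ j)
  rw [e1, hsplit, e2, ← hSset, hpa] at h
  push_cast at h ⊢
  linear_combination z * h

/-- The sum over the exponents. -/
noncomputable def total (P : Parts G p a m) [Fintype (expo G P.dvd)] (χ : IrrCharacter G) (g : G) : ℂ :=
  ∑ k : expo G P.dvd, (χ : G → ℂ) (g ^ (k.1 : ZMod (Nat.card G)).val)

theorem Parts.total_integral (P : Parts G p a m) [Fintype (expo G P.dvd)] (χ : IrrCharacter G)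
    (g : G) : ∃ w : ℂ, IsIntegral ℤ w ∧ total P χ g = ((p ^ (a - 1) : ℕ) : ℂ) * w := by
  classical
  obtain ⟨s, h1, -, h3⟩ := exists_roots (isCharacter_coe χ) g
  have hroot : ∀ z ∈ s, z ^ Nat.card G = 1 := fun z hz => by
    obtain ⟨d, hd⟩ := orderOf_dvd_natCard g
    rw [hd, pow_mul, h1 z hz, one_pow]
  choose! w hw hw' using fun z (hz : z ∈ s) => P.sum_root (hroot z hz)
  refine ⟨(s.map w).sum, IsIntegral.multiset_sum fun x hx => ?_, ?_⟩
  · obtain ⟨z, hz, rfl⟩ := Multiset.mem_map.1 hx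
    exact hw z hz
  · rw [← Multiset.sum_map_mul_left, total, Finset.sum_congr rfl (fun k _ => h3 _)]
    rw [Finset.sum, ← Multiset.map_congr rfl (fun z hz => hw' z hz)]
    simp only [Finset.sum]
    rw [Multiset.sum_map_sum_map]

theorem Parts.fix_regular (P : Parts G p a m) {g : G} (hg : ¬ p ∣ orderOf g)
    (k : expo G P.dvd) : g ^ (k.1 : ZMod (Nat.card G)).val = g := by
  have hdvd : orderOf g ∣ m := by
    refine Nat.Coprime.dvd_of_dvd_mul_left ?_ (P.card ▸ orderOf_dvd_natCard g)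
    exact (((P.prime.coprime_iff_not_dvd).2 hg).symm).pow_right a
  conv_rhs => rw [← pow_one g]
  exact pow_eq_pow_iff_modEq.2 (((mem_expo_iff k.1).1 k.2).of_dvd hdvd)

theorem main (P : Parts G p a m) (χ : IrrCharacter G) {r : ℕ}
    (hr : Nat.card {ψ : IrrCharacter G // ∃ σ : ℂ ≃+* ℂ,
      σ (Complex.exp (2 * Real.pi * Complex.I / (m : ℕ))) =
        Complex.exp (2 * Real.pi * Complex.I / (m : ℕ)) ∧
      (ψ : G → ℂ) = fun g => σ ((χ : G → ℂ) g)} = r) :
    (r * charDegree (χ : G → ℂ)).factorization p ≤ a ∧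
      (p ^ a ∣ r * charDegree (χ : G → ℂ) → p ^ a ∣ charDegree (χ : G → ℂ)) := by
  classical
  letI := expoAction G P.dvd
  haveI : Fintype (expo G P.dvd) := Fintype.ofFinite (expo G P.dvd)
  have hp := P.prime
  have hp0 := hp.pos
  set d := charDegree (χ : G → ℂ) with hd
  set St := MulAction.stabilizer (expo G P.dvd) χ
  have horb : r * Nat.card St = Nat.card (expo G P.dvd) := by
    rw [← hr, ← Subgroup.index_mul_card St, MulAction.index_stabilizer, ← Nat.card_coe_set_eq]
    congr 1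
    exact Nat.card_congr (Equiv.subtypeEquivRight fun ψ => by
      rw [conjugate_iff P.dvd]; exact ⟨fun ⟨k, hk⟩ => ⟨k, hk⟩, fun ⟨k, hk⟩ => ⟨k, hk⟩⟩)
  have hH := P.card_expo_m
  have hd0 : 0 < d := charDegree_pos χ
  have hr0 : r ≠ 0 := fun h => by
    rw [h, zero_mul] at horb; exact (Nat.card_pos (α := (expo G P.dvd))).ne horb
  -- inner products
  have hinner : ∀ l : (expo G P.dvd), ∑ g : G, total P χ g * conj ((χ : G → ℂ) (g ^ (l.1 : ZMod (Nat.card G)).val)) =
      (Nat.card St : ℂ) * Nat.card G := by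
    intro l
    rw [show (∑ g : G, total P χ g * conj ((χ : G → ℂ) (g ^ (l.1 : ZMod (Nat.card G)).val))) =
        ∑ k : (expo G P.dvd), ∑ g : G, (twist k.1 χ : G → ℂ) g * conj ((twist l.1 χ : G → ℂ) g) by
      rw [Finset.sum_comm]; exact Finset.sum_congr rfl fun g _ => by
        rw [total, Finset.sum_mul]; rfl]
    have hG0 : (Nat.card G : ℂ) ≠ 0 := natCard_ne_zero
    have h1 : ∀ k : (expo G P.dvd), ∑ g : G, (twist k.1 χ : G → ℂ) g * conj ((twist l.1 χ : G → ℂ) g) =
        if k • χ = l • χ then (Nat.card G : ℂ) else 0 := by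
      intro k
      have h := classInner_irr (twist k.1 χ) (twist l.1 χ)
      rw [classInner, inv_mul_eq_iff_eq_mul₀ hG0] at h
      rw [h, mul_ite, mul_one, mul_zero]
      exact if_congr Iff.rfl rfl rfl
    rw [Finset.sum_congr rfl (fun k _ => h1 k), ← Finset.sum_filter, Finset.sum_const, nsmul_eq_mul,
      ← Fintype.card_subtype, ← Nat.card_eq_fintype_card]
    congr 2
    refine Nat.card_congr ⟨fun k => ⟨l⁻¹ * k.1, ?_⟩, fun s => ⟨l * s.1, ?_⟩,
      fun k => Subtype.ext (mul_inv_cancel_left _ _), fun s => Subtype.ext (inv_mul_cancel_left _ _)⟩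
    · rw [MulAction.mem_stabilizer_iff, mul_smul, k.2, ← mul_smul, inv_mul_cancel, one_smul]
    · rw [mul_smul, MulAction.mem_stabilizer_iff.1 s.2]
  have hTχ : ∑ g : G, total P χ g * conj ((χ : G → ℂ) g) = (Nat.card St : ℂ) * Nat.card G := by
    have := hinner 1
    simp only [Subgroup.coe_one, pow_val_one] at this
    exact this
  have hTcl : IsClassFunction G (total P χ) := fun g x => by
    refine Finset.sum_congr rfl fun k _ => ?_
    rw [conj_pow, isClassFunction_coe χ]
  -- the divisibility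
  have hdvd : r * d ∣ (p - 1) * Nat.card G := by
    have hint : IsIntegral ℤ (((Nat.card St * Nat.card G : ℕ) : ℂ) / ((p ^ (a - 1) * d : ℕ) : ℂ)) := by
      have hpC : ((p ^ (a - 1) : ℕ) : ℂ) ≠ 0 := Nat.cast_ne_zero.2 (pow_ne_zero _ hp.ne_zero)
      have h := sum_div_integral χ (fun g => total P χ g⁻¹ / ((p ^ (a - 1) : ℕ) : ℂ))
        (fun g x => by
          show total P χ (x * g * x⁻¹)⁻¹ / _ = _
          rw [show (x * g * x⁻¹)⁻¹ = x * g⁻¹ * x⁻¹ by group, hTcl])
        (fun g => by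
          obtain ⟨w, hw, hw'⟩ := P.total_integral χ g⁻¹
          have hc := (isIntegral_centralChar χ g).mul hw
          rw [centralChar] at hc
          rw [hw']
          refine Eq.mpr (congrArg (IsIntegral ℤ) ?_) hc
          field_simp)
      convert h using 1
      rw [Nat.cast_mul (p ^ (a - 1)), Nat.cast_mul, hd, coe_charDegree,
        ← hTχ, Finset.sum_div, Finset.sum_div]
      refine Fintype.sum_equiv (Equiv.inv G) _ _ fun g => ?_
      simp only [Equiv.inv_apply, inv_inv]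
      rw [map_inv_eq_conj (isCharacter_coe χ) g]
      field_simp
    have h1 := dvd_of_isIntegral_div (Nat.mul_ne_zero (pow_ne_zero _ hp.ne_zero) hd0.ne') hint
    have h2 := Nat.mul_dvd_mul_left r h1
    rw [← mul_assoc r (Nat.card St), horb, hH, mul_left_comm, mul_assoc (p ^ (a - 1))] at h2
    exact Nat.dvd_of_mul_dvd_mul_left (pow_pos hp0 _) h2
  have hNfac : (Nat.card G).factorization p = a := by
    rw [P.card, Nat.factorization_mul (pow_ne_zero _ hp.ne_zero)
      (fun h0 => P.ndvd (by rw [h0]; exact dvd_zero p)), Finsupp.add_apply, Nat.factorization_pow,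
      Finsupp.smul_apply, hp.factorization_self, Nat.factorization_eq_zero_of_not_dvd P.ndvd]
    simp
  have hfirst : (r * d).factorization p ≤ a := by
    have hp1 : p - 1 ≠ 0 := by have := hp.two_le; omega
    have h3 := (Nat.factorization_le_iff_dvd (Nat.mul_ne_zero hr0 hd0.ne')
      (Nat.mul_ne_zero hp1 Nat.card_pos.ne')).2 hdvd p
    have hz : (p - 1).factorization p = 0 := Nat.factorization_eq_zero_of_not_dvd fun h4 => by
      have := Nat.le_of_dvd (Nat.pos_of_ne_zero hp1) h4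
      omega
    rw [Nat.factorization_mul hp1 Nat.card_pos.ne', Finsupp.add_apply, hNfac, hz, zero_add] at h3
    exact h3
  refine ⟨hfirst, fun hfull => ?_⟩
  set s := r.factorization p with hs
  have hrd : a ≤ (r * d).factorization p :=
    (hp.pow_dvd_iff_le_factorization (Nat.mul_ne_zero hr0 hd0.ne')).1 hfull
  have hsum : s + d.factorization p = a := by
    rw [Nat.factorization_mul hr0 hd0.ne', Finsupp.add_apply] at hrd hfirst
    omega
  rw [hp.pow_dvd_iff_le_factorization hd0.ne']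
  by_contra hlt
  have hs0 : 1 ≤ s := by omega
  -- the norm on the regular elements
  set R : Finset G := Finset.univ.filter fun g => ¬ p ∣ orderOf g
  set SR : ℝ := ∑ g ∈ R, ‖(χ : G → ℂ) g‖ ^ 2
  obtain ⟨z, hz⟩ : ∃ z : ℤ, ((p ^ s : ℕ) : ℝ) * SR = (z : ℝ) * Nat.card G := by
    have hgen := CfsgLib.Chars.Brauer.regularPart_gen hp χ P.card P.ndvd (e := a - s)
      ((hp.pow_dvd_iff_le_factorization hd0.ne').2 (by omega))
    rw [show a - (a - s) = s by omega] at hgen
    obtain ⟨z, hz⟩ := CfsgLib.Chars.Exceptional.gen_inner_int hgen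
      (CfsgLib.Chars.Exceptional.gen_of_char (isCharacter_coe χ))
    refine ⟨z, ?_⟩
    simp only [classInner] at hz
    rw [inv_mul_eq_iff_eq_mul₀ natCard_ne_zero] at hz
    apply Complex.ofReal_injective
    push_cast [SR]
    rw [mul_comm (z : ℂ), ← hz, Finset.mul_sum, Finset.sum_filter]
    refine Finset.sum_congr rfl fun x _ => ?_
    by_cases hx : p ∣ orderOf x
    · rw [if_neg (not_not.2 hx), pRegularPart, if_neg (fun h : IsPRegular p x => h hx), mul_zero, zero_mul]
    · rw [if_pos hx, pRegularPart, if_pos (show IsPRegular p x from hx), mul_assoc,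
        Complex.mul_conj, Complex.normSq_eq_norm_sq]
      push_cast; rfl
  have hSRpos : 0 < SR := Finset.sum_pos' (fun g _ => sq_nonneg _)
    ⟨1, Finset.mem_filter.2 ⟨Finset.mem_univ _, by simp [hp.ne_one]⟩,
      pow_pos (norm_pos_iff.mpr (map_one_ne_zero χ)) 2⟩
  have hG0 : (0 : ℝ) < Nat.card G := Nat.cast_pos.2 Nat.card_pos
  have hz1 : (1 : ℝ) ≤ z := by
    have h0 : (0 : ℝ) < z := by
      have : (0 : ℝ) < ((p ^ s : ℕ) : ℝ) * SR := mul_pos (Nat.cast_pos.2 (pow_pos hp0 s)) hSRpos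
      rw [hz] at this
      exact pos_of_mul_pos_left this hG0.le
    exact_mod_cast (show (1 : ℤ) ≤ z from by exact_mod_cast h0)
  have hTT : ∑ g : G, ‖total P χ g‖ ^ 2 = (Nat.card (expo G P.dvd) : ℝ) * (Nat.card St * Nat.card G) := by
    apply Complex.ofReal_injective
    push_cast
    rw [Finset.sum_congr rfl (g := fun g => total P χ g * conj (total P χ g)) (fun g _ => by
      rw [Complex.mul_conj, Complex.normSq_eq_norm_sq]; push_cast; rfl)]
    simp only [show ∀ g, conj (total P χ g) =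
      ∑ l : (expo G P.dvd), conj ((χ : G → ℂ) (g ^ (l.1 : ZMod (Nat.card G)).val)) from fun g => map_sum _ _ _,
      Finset.mul_sum]
    rw [Finset.sum_comm, Finset.sum_congr rfl (fun l _ => hinner l), Finset.sum_const,
      Finset.card_univ, ← Nat.card_eq_fintype_card, nsmul_eq_mul]
  have hTreg : ∀ g ∈ R, total P χ g = (Nat.card (expo G P.dvd) : ℂ) * (χ : G → ℂ) g := by
    intro g hg
    rw [total, Finset.sum_congr rfl (fun k _ => by
      rw [P.fix_regular (Finset.mem_filter.1 hg).2 k]), Finset.sum_const, Finset.card_univ,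
      ← Nat.card_eq_fintype_card, nsmul_eq_mul]
  have hsplit : (Nat.card (expo G P.dvd) : ℝ) ^ 2 * SR + ∑ g ∈ Finset.univ.filter (fun g : G => p ∣ orderOf g),
      ‖total P χ g‖ ^ 2 = (Nat.card (expo G P.dvd) : ℝ) * (Nat.card St * Nat.card G) := by
    rw [← hTT, ← Finset.sum_filter_add_sum_filter_not Finset.univ (fun g : G => p ∣ orderOf g)
      (fun g => ‖total P χ g‖ ^ 2), add_comm, Finset.mul_sum]
    congr 1
    refine Finset.sum_congr rfl fun g hg => ?_
    rw [hTreg g hg, norm_mul, Complex.norm_natCast, mul_pow]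
  have hsing0 := Finset.sum_nonneg (s := Finset.univ.filter (fun g : G => p ∣ orderOf g))
    (f := fun g => ‖total P χ g‖ ^ 2) (fun g _ => sq_nonneg _)
  have hps : p ^ s ∣ r := Nat.ordProj_dvd r p
  have horbR : (r : ℝ) * Nat.card St = Nat.card (expo G P.dvd) := by exact_mod_cast horb
  have hH0 : (0 : ℝ) < Nat.card (expo G P.dvd) := Nat.cast_pos.2 Nat.card_pos
  have hrR : ((p ^ s : ℕ) : ℝ) ≤ r := by
    exact_mod_cast Nat.le_of_dvd (Nat.pos_of_ne_zero hr0) hps
  have hpsR : (0 : ℝ) < ((p ^ s : ℕ) : ℝ) := Nat.cast_pos.2 (pow_pos hp0 s)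
  set Z := ∑ g ∈ Finset.univ.filter (fun g : G => p ∣ orderOf g), ‖total P χ g‖ ^ 2
  have hStR : (0 : ℝ) < Nat.card St := Nat.cast_pos.2 Nat.card_pos
  -- key relation
  have hkey : (Nat.card (expo G P.dvd) : ℝ) * Nat.card St * ((r : ℝ) * z - ((p ^ s : ℕ) : ℝ)) * Nat.card G +
      ((p ^ s : ℕ) : ℝ) * Z = 0 := by
    have e1 := congrArg (fun t : ℝ => ((p ^ s : ℕ) : ℝ) * t) hsplit
    simp only [mul_add] at e1
    rw [← mul_assoc ((p ^ s : ℕ) : ℝ) ((Nat.card (expo G P.dvd) : ℝ) ^ 2),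
      mul_comm ((p ^ s : ℕ) : ℝ) ((Nat.card (expo G P.dvd) : ℝ) ^ 2), mul_assoc, hz, ← horbR] at e1
    rw [← horbR]
    linear_combination e1
  have hrz : ((p ^ s : ℕ) : ℝ) ≤ (r : ℝ) * z :=
    hrR.trans (le_mul_of_one_le_right (Nat.cast_nonneg r) hz1)
  have hA : (0 : ℝ) ≤ (Nat.card (expo G P.dvd) : ℝ) * Nat.card St * ((r : ℝ) * z - ((p ^ s : ℕ) : ℝ)) * Nat.card G :=
    mul_nonneg (mul_nonneg (mul_nonneg hH0.le hStR.le) (sub_nonneg.2 hrz)) hG0.le
  have hB : (0 : ℝ) ≤ ((p ^ s : ℕ) : ℝ) * Z := mul_nonneg hpsR.le hsing0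
  have hZ : Z = 0 := by
    have : ((p ^ s : ℕ) : ℝ) * Z = 0 := by linarith
    exact (mul_eq_zero.1 this).resolve_left hpsR.ne'
  have hrz' : (r : ℝ) * z = ((p ^ s : ℕ) : ℝ) := by
    have h0 : (Nat.card (expo G P.dvd) : ℝ) * Nat.card St * ((r : ℝ) * z - ((p ^ s : ℕ) : ℝ)) * Nat.card G = 0 := by
      linarith
    simp only [mul_eq_zero, hH0.ne', hStR.ne', hG0.ne', false_or, or_false] at h0
    linarith
  have hzr : (z : ℝ) = 1 := by
    have : (r : ℝ) * z ≤ r * 1 := by rw [mul_one, hrz']; exact hrR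
    have := le_of_mul_le_mul_left this (Nat.cast_pos.2 (Nat.pos_of_ne_zero hr0))
    linarith
  have hrps : r = p ^ s := by rw [hzr, mul_one] at hrz'; exact_mod_cast hrz'
  -- vanishing on the singular elements killed by `p * m`
  have hvan : ∀ g : G, p ∣ orderOf g → g ^ (p * m) = 1 → (χ : G → ℂ) g = 0 := by
    intro g hg hg1
    have hT : total P χ g = 0 := by
      have h := (Finset.sum_eq_zero_iff_of_nonneg (fun g _ => sq_nonneg _)).1 hZ g
        (Finset.mem_filter.2 ⟨Finset.mem_univ _, hg⟩)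
      exact norm_eq_zero.1 (sq_eq_zero_iff.1 h)
    set H1 := (expo G P.dvd').subgroupOf (expo G P.dvd)
    have hle : expo G P.dvd' ≤ (expo G P.dvd) := fun k hk => by
      rw [mem_expo_iff] at hk ⊢
      exact hk.of_dvd (dvd_mul_left m p)
    have hH1 : H1.index = p - 1 := by
      have h := H1.card_mul_index
      rw [Nat.card_congr (Subgroup.subgroupOfEquivOfLe hle).toEquiv, P.card_expo_pm, hH] at h
      exact Nat.eq_of_mul_eq_mul_left (pow_pos hp0 _) h
    have hStI : St.index = p ^ s := by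
      have h := St.index_mul_card
      rw [← horb] at h
      exact (Nat.eq_of_mul_eq_mul_right Nat.card_pos h).trans hrps
    have htop : St ⊔ H1 = ⊤ := by
      rw [← Subgroup.index_eq_one]
      refine Nat.eq_one_of_dvd_coprimes ?_
        (hStI ▸ Subgroup.index_dvd_of_le (le_sup_left : St ≤ St ⊔ H1))
        (hH1 ▸ Subgroup.index_dvd_of_le (le_sup_right : H1 ≤ St ⊔ H1))
      refine Nat.Coprime.pow_left _ ((hp.coprime_iff_not_dvd).2 fun h4 => ?_)
      have := Nat.le_of_dvd (Nat.sub_pos_of_lt hp.one_lt) h4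
      omega
    have hconst : ∀ k : (expo G P.dvd), (χ : G → ℂ) (g ^ (k.1 : ZMod (Nat.card G)).val) = (χ : G → ℂ) g := by
      intro k
      obtain ⟨t, ht, u, hu, rfl⟩ := Subgroup.mem_sup.1 (htop.ge (Subgroup.mem_top k))
      have hu' : g ^ (u.1 : ZMod (Nat.card G)).val = g := by
        conv_rhs => rw [← pow_one g]
        exact pow_eq_pow_iff_modEq.2 (((mem_expo_iff u.1).1 hu).of_dvd (orderOf_dvd_of_pow_eq_one hg1))
      have htχ : twist t.1 χ = χ := ht
      rw [Subgroup.coe_mul, mul_comm t.1, pow_val_mul, hu']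
      exact congrFun (congrArg Subtype.val htχ) g
    rw [total, Finset.sum_congr rfl (fun k _ => hconst k), Finset.sum_const, Finset.card_univ,
      ← Nat.card_eq_fintype_card, nsmul_eq_mul] at hT
    exact (mul_eq_zero.1 hT).resolve_left (Nat.cast_ne_zero.2 Nat.card_pos.ne')
  -- regular elements centralized by an element of order `p`
  have hcent : ∀ v : G, ¬ p ∣ orderOf v → p ∣ Nat.card (Subgroup.centralizer ({v} : Set G)) →
      ∃ w : ℂ, IsIntegral ℤ w ∧ (χ : G → ℂ) v = (p : ℂ) * w := by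
    intro v hv hpv
    haveI : Fact p.Prime := ⟨hp⟩
    obtain ⟨⟨u, huC⟩, hu⟩ := exists_prime_orderOf_dvd_card' p hpv
    rw [Subgroup.orderOf_mk] at hu
    have hcomm : Commute u v := Subgroup.mem_centralizer_singleton_iff.1 huC
    set o := orderOf v
    have hom : o ∣ m := by
      refine Nat.Coprime.dvd_of_dvd_mul_left ?_ (P.card ▸ orderOf_dvd_natCard v)
      exact (((hp.coprime_iff_not_dvd).2 hv).symm).pow_right a
    have hoz : (o : ZMod p) ≠ 0 := by rw [Ne, ZMod.natCast_eq_zero_iff]; exact hv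
    set g := u * v
    have hgo : orderOf g = p * o := by
      rw [hcomm.orderOf_mul_eq_mul_orderOf_of_coprime (by rw [hu]; exact (hp.coprime_iff_not_dvd).2 hv), hu]
    have hgj : ∀ j, g ^ (1 + o * j) = u ^ (1 + o * j) * v := fun j => by
      rw [hcomm.mul_pow, pow_add v, pow_one, pow_mul v, pow_orderOf_eq_one, one_pow, mul_one]
    obtain ⟨sroots, h1, -, h3⟩ := exists_roots (isCharacter_coe χ) g
    have hz : ∀ z ∈ sroots, ∃ w : ℂ, IsIntegral ℤ w ∧
        ∑ j ∈ Finset.range p, z ^ (1 + o * j) = (p : ℂ) * w := by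
      intro z hz
      obtain ⟨w, hw, e⟩ := geom_mul_integral (x := z ^ o) hp0 (by
        rw [← pow_mul, mul_comm, ← hgo, h1 z hz])
      refine ⟨z * w, (IsIntegral.of_pow (orderOf_pos g) (h1 z hz ▸ isIntegral_one)).mul hw, ?_⟩
      rw [Finset.sum_congr rfl (g := fun j => z * (z ^ o) ^ j) (fun j _ => by
        rw [pow_add, pow_one, pow_mul]), ← Finset.mul_sum, e]
      ring
    choose! w hw hw' using hz
    refine ⟨(sroots.map w).sum, IsIntegral.multiset_sum fun x hx => ?_, ?_⟩
    · obtain ⟨z, hz, rfl⟩ := Multiset.mem_map.1 hx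
      exact hw z hz
    · rw [← Multiset.sum_map_mul_left, ← Multiset.map_congr rfl (fun z hz => hw' z hz)]
      rw [show (Multiset.map (fun z => ∑ j ∈ Finset.range p, z ^ (1 + o * j)) sroots).sum =
          ∑ j ∈ Finset.range p, (χ : G → ℂ) (g ^ (1 + o * j)) by
        simp only [h3, Finset.sum]
        rw [Multiset.sum_map_sum_map]]
      symm
      refine (Finset.sum_eq_single (-(o : ZMod p)⁻¹).val ?_ ?_).trans ?_
      · intro j hj hne
        apply hvan
        · have hnd : ¬ p ∣ 1 + o * j := by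
            rw [← ZMod.natCast_eq_zero_iff]
            push_cast
            intro h
            apply hne
            rw [← Nat.mod_eq_of_lt (Finset.mem_range.1 hj), ← ZMod.val_natCast]
            congr 1
            field_simp
            linear_combination h
          have hu1 : orderOf (u ^ (1 + o * j)) = p := by
            rw [Nat.Coprime.orderOf_pow (by rw [hu]; exact (hp.coprime_iff_not_dvd).2 hnd), hu]
          rw [hgj, (hcomm.pow_left _).orderOf_mul_eq_mul_orderOf_of_coprime (by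
            rw [hu1]; exact (hp.coprime_iff_not_dvd).2 hv), hu1]
          exact dvd_mul_right p o
        · have hgpm : g ^ (p * m) = 1 :=
            orderOf_dvd_iff_pow_eq_one.1 (hgo.dvd.trans (Nat.mul_dvd_mul_left p hom))
          rw [← pow_mul, mul_comm, pow_mul, hgpm, one_pow]
      · intro h
        exact absurd (Finset.mem_range.2 (ZMod.val_lt _)) h
      · congr 1
        rw [hgj]
        have : p ∣ 1 + o * (-(o : ZMod p)⁻¹).val := by
          rw [← ZMod.natCast_eq_zero_iff]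
          push_cast
          rw [ZMod.natCast_zmod_val]
          field_simp
          ring
        rw [orderOf_dvd_iff_pow_eq_one.1 (hu ▸ this), one_mul]
  -- the contradiction
  set d' := d / p ^ d.factorization p with hd'
  have hdd' : p ^ d.factorization p * d' = d := Nat.ordProj_mul_ordCompl_eq_self d p
  have hd'p : ¬ p ∣ d' := Nat.not_dvd_ordCompl hp hd0.ne'
  let F : G → ℂ := fun g => if p ∣ orderOf g then 0 else (d' : ℂ) / p * conj ((χ : G → ℂ) g)
  have hFcl : IsClassFunction G F := fun g x => by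
    simp only [F]
    rw [← MulAut.conj_apply, MulEquiv.orderOf_eq, MulAut.conj_apply, isClassFunction_coe χ]
  have hintF := sum_div_integral χ F hFcl (fun g => by
    simp only [F]
    split_ifs with hg
    · simp [isIntegral_zero]
    by_cases hpc : p ∣ Nat.card (Subgroup.centralizer ({g} : Set G))
    · obtain ⟨w, hw, hw'⟩ := hcent g hg hpc
      have hwc : IsIntegral ℤ (conj w) :=
        hw.map ((starRingEnd ℂ).toIntAlgHom)
      have h := ((isIntegral_natCast d').mul ((isIntegral_centralChar χ g).mul hwc))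
      rw [centralChar] at h
      refine Eq.mpr (congrArg (IsIntegral ℤ) ?_) h
      rw [hw', map_mul, map_natCast]
      have : (p : ℂ) ≠ 0 := Nat.cast_ne_zero.2 hp.ne_zero
      field_simp
    · set h := (Subgroup.centralizer ({g} : Set G)).index
      have hc := Subgroup.card_mul_index (Subgroup.centralizer ({g} : Set G))
      have hdiv : p * d ∣ h * d' := by
        have hpa : p ^ a ∣ h := by
          refine Nat.Coprime.dvd_of_dvd_mul_left (((hp.coprime_iff_not_dvd).2 hpc).pow_left a) ?_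
          rw [hc, P.card]
          exact dvd_mul_right _ m
        rw [← hdd', ← mul_assoc, ← pow_succ']
        exact Nat.mul_dvd_mul_right ((pow_dvd_pow p (by omega)).trans hpa) d'
      obtain ⟨t, ht⟩ := hdiv
      have h1 := (isIntegral_natCast (R := ℤ) (B := ℂ) t).mul
        ((isIntegral_apply (isCharacter_coe χ) g⁻¹).mul (isIntegral_apply (isCharacter_coe χ) g))
      rw [map_inv_eq_conj (isCharacter_coe χ) g] at h1
      refine Eq.mpr (congrArg (IsIntegral ℤ) ?_) h1
      rw [← coe_charDegree χ, ← hd]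
      have e : (h : ℂ) * d' = (p : ℂ) * d * t := by exact_mod_cast ht
      have hpne : (p : ℂ) ≠ 0 := Nat.cast_ne_zero.2 hp.ne_zero
      have hdne : (d : ℂ) ≠ 0 := Nat.cast_ne_zero.2 hd0.ne'
      field_simp
      linear_combination ((χ : G → ℂ) g * conj ((χ : G → ℂ) g)) * e)
  have hFsum : (∑ g : G, F g * (χ : G → ℂ) g) / (χ : G → ℂ) 1 =
      ((d' * Nat.card G : ℕ) : ℂ) / ((p * d * p ^ s : ℕ) : ℂ) := by
    have hzC : (((p ^ s : ℕ) : ℝ) * SR : ℝ) = (Nat.card G : ℝ) := by rw [hz, hzr, one_mul]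
    have hsum' : ∑ g : G, F g * (χ : G → ℂ) g = (d' : ℂ) / p * (SR : ℂ) := by
      simp only [F, SR, ite_mul, zero_mul]
      rw [Finset.sum_ite, Finset.sum_const_zero, zero_add, Complex.ofReal_sum, Finset.mul_sum]
      refine Finset.sum_congr rfl fun g _ => ?_
      rw [mul_assoc, mul_comm (conj _), Complex.mul_conj, Complex.normSq_eq_norm_sq]
    have hSRC : ((p ^ s : ℕ) : ℂ) * (SR : ℂ) = (Nat.card G : ℂ) := by exact_mod_cast hzC
    have hpne : (p : ℂ) ≠ 0 := Nat.cast_ne_zero.2 hp.ne_zero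
    rw [hsum', ← coe_charDegree χ, ← hd, Nat.cast_mul, Nat.cast_mul, Nat.cast_mul, ← hSRC]
    have hdne : (d : ℂ) ≠ 0 := Nat.cast_ne_zero.2 hd0.ne'
    have hpsne : ((p ^ s : ℕ) : ℂ) ≠ 0 := Nat.cast_ne_zero.2 (pow_ne_zero _ hp.ne_zero)
    field_simp
  rw [hFsum] at hintF
  have h1 := dvd_of_isIntegral_div
    (Nat.mul_ne_zero (Nat.mul_ne_zero hp.ne_zero hd0.ne') (pow_ne_zero _ hp.ne_zero)) hintF
  have hd'0 : d' ≠ 0 := fun h0 => hd'p (h0 ▸ dvd_zero p)
  have h2 := (Nat.factorization_le_iff_dvd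
    (Nat.mul_ne_zero (Nat.mul_ne_zero hp.ne_zero hd0.ne') (pow_ne_zero _ hp.ne_zero))
    (Nat.mul_ne_zero hd'0 Nat.card_pos.ne')).2 h1 p
  rw [Nat.factorization_mul (Nat.mul_ne_zero hp.ne_zero hd0.ne') (pow_ne_zero _ hp.ne_zero),
    Nat.factorization_mul hp.ne_zero hd0.ne', Nat.factorization_mul hd'0 Nat.card_pos.ne',
    Finsupp.add_apply, Finsupp.add_apply, Finsupp.add_apply, hNfac, Nat.factorization_pow,
    Finsupp.smul_apply, hp.factorization_self, Nat.factorization_eq_zero_of_not_dvd hd'p] at h2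
  simp only [smul_eq_mul, mul_one] at h2
  omega

end CfsgLib.PConjugate
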